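import Cfsg.Agent.RootSub.SL2Gen.Basic
import Cfsg.Agent.PSLTwoSub.DicksonGen
import Cfsg.Agent.MaxSub.Dickson.Finite
import Cfsg.Agent.MaxSub.Dickson.Maximal

/-!
A group of `SL(2, K)` with two unipotent elements not fixing a common point has even order.
-/

set_option autoImplicit false
set_option linter.unusedSectionVars false

namespace Cfsg.Agent.MaxSub.QuadPair

open Matrix Cfsg.Agent.PSLTwoSub Cfsg.Agent.RootSub.SL2Gen
open scoped MatrixGroups OnePoint Cfsg.Agent.MaxSub.Dickson

variable {K : Type*} [Field K] [Finite K]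

theorem two_dvd_card (h2 : (2 : K) ≠ 0) {α : K} (hα : α ≠ 0) (H : Subgroup SL(2, K))
    (hu : uu 1 ∈ H) (hv : vv α ∈ H) : 2 ∣ Nat.card H := by
  classical
  have := Fintype.ofFinite K
  obtain ⟨p, hpc, n, hp, hcard⟩ := FiniteField.card' K
  haveI : CharP K p := hpc
  haveI : Fact p.Prime := ⟨hp⟩
  let L := AlgebraicClosure K
  haveI : DecidableEq L := Classical.decEq L
  set π : SL(2, K) →* PGL(2, K) := projHom (RingHom.id K) with hπ
  refine dvd_trans ?_ (Subgroup.card_map_dvd H π)
  have hw : ∀ F₁ : Subfield K, 2 ∣ Nat.card (Dickson.subPSL F₁).range := by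
    intro F₁
    let w : SL(2, F₁) := ⟨!![0, 1; -1, 0], by simp [Matrix.det_fin_two]⟩
    have hy : projHom F₁.subtype w ∈ (Dickson.subPSL F₁).range := by
      rw [Dickson.range_subPSL]
      exact ⟨ProjGenLinGroup.mk (Matrix.SpecialLinearGroup.toGL w), ⟨w, rfl⟩,
        congrArg ProjGenLinGroup.mk (Units.ext rfl)⟩
    have hne : projHom F₁.subtype w ≠ 1 := fun h => by
      simpa [w] using (projHom_eq_one F₁.subtype h).1
    have hord : orderOf (⟨_, hy⟩ : (Dickson.subPSL F₁).range) = 2 :=
      orderOf_eq_prime (Subtype.ext (by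
        show (projHom F₁.subtype w) ^ 2 = 1
        rw [← map_pow]
        show Matrix.SpecialLinearGroup.toPGL (Matrix.SpecialLinearGroup.map F₁.subtype (w ^ 2)) = 1
        rw [← MonoidHom.mem_ker, Matrix.SpecialLinearGroup.toPGL_ker,
          Matrix.SpecialLinearGroup.mem_center_iff]
        refine ⟨-1, by simp, ?_⟩
        ext i j
        show Matrix.scalar (Fin 2) (-1 : K) i j =
          F₁.subtype ((((w ^ 2 : SL(2, F₁)) : Matrix (Fin 2) (Fin 2) F₁)) i j)
        rw [pow_two, Matrix.SpecialLinearGroup.coe_mul]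
        fin_cases i <;> fin_cases j <;> simp [w, Matrix.mul_apply, Fin.sum_univ_two]))
        (fun h => hne (congrArg Subtype.val h))
    exact (dvd_of_eq hord.symm).trans (orderOf_dvd_natCard _)
  have hdvd : p ∣ Nat.card (H.map π) := by
    have hne : π (uu 1) ≠ 1 := fun h => by simpa using (projHom_eq_one (RingHom.id K) h).1
    have hord : orderOf (⟨π (uu 1), Subgroup.mem_map_of_mem π hu⟩ : H.map π) = p :=
      orderOf_eq_prime (Subtype.ext (by
        show π (uu 1) ^ p = 1
        have e : ∀ k : ℕ, (uu (1 : K)) ^ k = uu (k : K) := by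
          intro k
          induction k with
          | zero => simp [uu_zero]
          | succ k ih => rw [pow_succ, ih, uu_add]; push_cast; rfl
        rw [← map_pow, e, CharP.cast_eq_zero, uu_zero, map_one]))
        (fun h => hne (congrArg Subtype.val h))
    exact (dvd_of_eq hord.symm).trans (orderOf_dvd_natCard _)
  rcases Dickson.classifyF (K := L) (p := p) (H.map π) with
    ⟨a, b, m, hpn, -, -, -, -⟩ | ⟨a, b, m, N, -, -, -, -, -, hc, -⟩ | ⟨x, hfix, -⟩ |
    ⟨-, hc, -⟩ | ⟨-, hc, -⟩ | ⟨-, hc, -⟩ | ⟨F₁, h, -, he⟩ | ⟨F₁, h, -, -, he⟩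
  · exact absurd hdvd hpn
  · exact ⟨N, hc⟩
  · exfalso
    have h1 := hfix _ ⟨vv α, hv, rfl⟩
    have h3 := hfix _ ⟨uu 1, hu, rfl⟩
    change ProjGenLinGroup.mk (Matrix.SpecialLinearGroup.toGL
      (Matrix.SpecialLinearGroup.map (RingHom.id K) (vv α))) • x = x at h1
    change ProjGenLinGroup.mk (Matrix.SpecialLinearGroup.toGL
      (Matrix.SpecialLinearGroup.map (RingHom.id K) (uu 1))) • x = x at h3
    rw [Dickson.mk_smul] at h1 h3
    cases x using OnePoint.rec with
    | infty =>
      rw [OnePoint.smul_infty_eq_self_iff] at h1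
      simp at h1
      exact hα h1
    | coe x =>
      rw [OnePoint.smul_some_eq_ite] at h3
      simp at h3
  · rw [hc]; decide
  · rw [hc]; decide
  · rw [hc]; decide
  · rw [← Subgroup.card_map_of_injective (f := (MulAut.conj h⁻¹).toMonoidHom)
      (MulAut.conj h⁻¹).injective,
      he]
    exact (hw F₁).trans (Subgroup.card_dvd_of_le (Dickson.subPSL_le_subPGL F₁))
  · rw [← Subgroup.card_map_of_injective (f := (MulAut.conj h⁻¹).toMonoidHom)
      (MulAut.conj h⁻¹).injective,
      he]
    exact hw F₁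

end Cfsg.Agent.MaxSub.QuadPair
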