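import Cfsg.Agent.MaxSub.QuadPair.Alg
import Cfsg.Agent.MaxSub.QuadPair.Residual
import Cfsg.Agent.RootSub.SL2Gen.Ring
import Cfsg.Agent.GeoLow.TensorSO.SL2Any

/-!
The pairing of two conjugate quadratic unipotent elements is a scalar, unless the group has more
members near the first one.
-/

set_option autoImplicit false
set_option linter.style.haveILetI false

namespace Cfsg.Agent.MaxSub.QuadPair

open Module Polynomial RootSub.SL2Gen

variable {F : Type*} {V : Type*} [Field F] [Finite F] [AddCommGroup V] [Module F V]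
  [FiniteDimensional F V] {G : Subgroup (Module.End F V)ˣ} {N N' : Module.End F V} {m : ℕ}

/-- The coordinate of the Casimir element. -/
noncomputable def gen (N N' : Module.End F V) (m : ℕ) : Ring' N N' m := Ideal.Quotient.mk _ X

lemma finite_ring : Finite (Ring' N N' m) := by
  haveI : Finite V := Module.finite_of_finite F
  haveI : Finite (Module.End F V) := DFunLike.finite _
  exact Finite.of_injective _ (emb_injective (N := N) (N' := N') (m := m))

lemma emb_gen : emb N N' m (gen N N' m) = cas N N' * idem N N' m := by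
  rw [gen, emb_mk, aeval_X]

lemma exists_aeval (r : Ring' N N' m) : ∃ p : F[X], aeval (gen N N' m) p = r := by
  obtain ⟨p, rfl⟩ := Ideal.Quotient.mk_surjective r
  refine ⟨p, ?_⟩
  rw [gen, ← Ideal.Quotient.mkₐ_eq_mk F, Polynomial.aeval_algHom_apply, aeval_X_left_apply]

section

variable (hP : Pair G N N') (hS : Split N N' m)
include hS

lemma isUnit_gen : IsUnit (gen N N' m) := by
  refine IsUnit.of_mul_eq_one (Ideal.Quotient.mk _ (X ^ (2 * m - 1))) (emb_injective ?_)
  have hk : cas N N' * kinv N N' m = idem N N' m := by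
    rw [kinv, (Commute.self_pow (cas N N') (2 * m - 1)).eq, ← kinv, hS.kinv_mul_cas]
  rw [hS.emb_mul, emb_one, emb_gen, emb_mk, map_pow, aeval_X, ← kinv, mul_assoc,
    ← mul_assoc (idem N N' m), hS.idem_mul_kinv, ← mul_assoc, hk, hS.idem]

omit [Finite F] in
lemma idem_commute {x : Module.End F V} (hx : InJ N N' x) : Commute (idem N N' m) x :=
  hx.cen hS.sq hS.sq' hS.cen_idem (Commute.pow_self _ _)

include hP

/-- Members of the group over the elements of the matrix group. -/
lemma exists_lift {A : Matrix.SpecialLinearGroup (Fin 2) (Ring' N N' m)}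
    (hA : A ∈ gam F (gen N N' m)) :
    ∃ g ∈ G, InJ N N' ((g : Module.End F V) - 1) ∧
      idem N N' m * (g : Module.End F V) = phi N N' m A := by
  have hk : emb N N' m (1 : Ring' N N' m) * kinv N N' m = kinv N N' m := by
    rw [emb_one, hS.idem_mul_kinv]
  have hu : ∀ c : F, ∃ g ∈ G, InJ N N' ((g : Module.End F V) - 1) ∧
      idem N N' m * (g : Module.End F V) = phi N N' m (uu (algebraMap F _ c)) := by
    intro c
    obtain ⟨g, hg, hgc⟩ := hP.mem c
    refine ⟨g, hg, by rw [hgc, add_sub_cancel_left]; exact InJ.smul_left c, ?_⟩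
    simp only [phi, lin, coe_uu, Matrix.of_apply, Matrix.cons_val_zero, Matrix.cons_val_one,
      Matrix.cons_val', Matrix.empty_val', Matrix.cons_val_fin_one, hk, emb_algebraMap, emb_zero,
      zero_mul, add_zero]
    rw [hgc, mul_add, mul_one, mul_smul_comm, smul_mul_assoc, add_right_comm, ← mul_add, ← cas,
      hS.kinv_mul_cas]
  have hv : ∀ c : F, ∃ g ∈ G, InJ N N' ((g : Module.End F V) - 1) ∧
      idem N N' m * (g : Module.End F V) =
        phi N N' m (vv (algebraMap F _ c * gen N N' m)) := by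
    intro c
    obtain ⟨g, hg, hgc⟩ := hP.mem' c
    refine ⟨g, hg, by rw [hgc, add_sub_cancel_left]; exact InJ.smul_right c, ?_⟩
    have he : emb N N' m (algebraMap F _ c * gen N N' m) * kinv N N' m = c • idem N N' m := by
      rw [hS.emb_mul, emb_algebraMap, emb_gen, smul_mul_assoc, smul_mul_assoc]
      congr 1
      rw [mul_assoc, mul_assoc (cas N N'), hS.idem_mul_kinv,
        show cas N N' * kinv N N' m = kinv N N' m * cas N N' from (Commute.self_pow _ _).eq,
        hS.kinv_mul_cas, hS.idem]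
    simp only [phi, lin, coe_vv, Matrix.of_apply, Matrix.cons_val_zero, Matrix.cons_val_one,
      Matrix.cons_val', Matrix.empty_val', Matrix.cons_val_fin_one, hk, he, emb_zero,
      zero_mul, add_zero]
    rw [hgc, mul_add, mul_one, mul_smul_comm, smul_mul_assoc, add_right_comm, ← mul_add, ← cas,
      hS.kinv_mul_cas]
  induction hA using Subgroup.closure_induction'' with
  | one =>
    exact ⟨1, one_mem G, by simpa using InJ.zero, by rw [Units.val_one, mul_one, hS.phi_one]⟩
  | mem x hx =>
    rcases hx with ⟨c, rfl⟩ | ⟨c, rfl⟩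
    exacts [hu c, hv c]
  | inv_mem x hx =>
    rcases hx with ⟨c, rfl⟩ | ⟨c, rfl⟩
    · have h := hu (-c)
      rwa [map_neg, ← uu_inv] at h
    · have h := hv (-c)
      rwa [show algebraMap F (Ring' N N' m) (-c) * gen N N' m =
        -(algebraMap F _ c * gen N N' m) by rw [map_neg]; ring, ← vv_inv] at h
  | mul x y _ _ hx hy =>
    obtain ⟨g, hg, hgJ, hgx⟩ := hx
    obtain ⟨k, hk', hkJ, hky⟩ := hy
    refine ⟨g * k, mul_mem hg hk', ?_, ?_⟩
    · have : ((g * k : (Module.End F V)ˣ) : Module.End F V) - 1 =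
          ((g : Module.End F V) - 1) * ((k : Module.End F V) - 1) +
          ((g : Module.End F V) - 1) + ((k : Module.End F V) - 1) := by
        rw [Units.val_mul]; noncomm_ring
      rw [this]
      exact ((hgJ.mul hS.sq hS.sq' hkJ).add hgJ).add hkJ
    · have hc : Commute (idem N N' m) (g : Module.End F V) := by
        have := (idem_commute hS hgJ).add_right (Commute.one_right _)
        rwa [sub_add_cancel] at this
      rw [hS.phi_mul, ← hgx, ← hky, Units.val_mul]
      rw [mul_assoc (idem N N' m) _ (idem N N' m * _), ← mul_assoc (g : Module.End F V), ← hc.eq,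
        mul_assoc (idem N N' m) (g : Module.End F V) (k : Module.End F V),
        ← mul_assoc (idem N N' m) (idem N N' m), hS.idem]

omit hP in
lemma phi_idem (A : Matrix.SpecialLinearGroup (Fin 2) (Ring' N N' m)) :
    idem N N' m * phi N N' m A = phi N N' m A ∧ phi N N' m A * idem N N' m = phi N N' m A := by
  rw [← hS.phi_one, ← hS.phi_mul, ← hS.phi_mul, one_mul, mul_one]; exact ⟨rfl, rfl⟩

/-- A power of every element is supported on the corner. -/
lemma exists_pure (h2 : (2 : F) ≠ 0) : ∃ P : ℕ, Odd P ∧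
    ∀ A ∈ gam F (gen N N' m), ∃ g ∈ G, (g : Module.End F V) =
      (1 - idem N N' m) + phi N N' m (A ^ P) := by
  haveI := Fintype.ofFinite F
  obtain ⟨p, hpc, n, hp, -⟩ := FiniteField.card' F
  haveI : CharP F p := hpc
  haveI : Fact p.Prime := ⟨hp⟩
  have hpodd : Odd p := hp.odd_of_ne_two fun h => h2 (by
    subst h; exact_mod_cast CharP.cast_eq_zero F 2)
  refine ⟨p ^ (3 * m), hpodd.pow, fun A hA => ?_⟩
  rcases subsingleton_or_nontrivial (Module.End F V) with hV | hV
  · exact ⟨1, one_mem G, Subsingleton.elim _ _⟩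
  haveI : CharP (Module.End F V) p := charP_of_injective_algebraMap
    (algebraMap F (Module.End F V)).injective p
  obtain ⟨g, hg, hJ, hgA⟩ := exists_lift hP hS hA
  have hc : Commute (idem N N' m) (g : Module.End F V) := by
    have := (idem_commute hS hJ).add_right (Commute.one_right _)
    rwa [sub_add_cancel] at this
  obtain ⟨y, hy, hcube⟩ := hJ.cube hS.sq hS.sq'
  have hzero : ((g : Module.End F V) - 1) ^ p ^ (3 * m) * (1 - idem N N' m) = 0 := by
    have hle : 3 * m ≤ p ^ (3 * m) := (Nat.lt_pow_self hp.one_lt).le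
    obtain ⟨d, hd⟩ := Nat.exists_eq_add_of_le' hle
    rw [hd, pow_add, mul_assoc, pow_mul, pow_succ, pow_two, hcube]
    have hKy : Commute (cas N N') y :=
      hy.cen hS.sq hS.sq' ⟨cas_comm_left hS.sq, cas_comm_right hS.sq'⟩ (Commute.refl _)
    rw [hKy.mul_pow, mul_assoc (cas N N' ^ m), mul_sub, mul_sub, mul_one,
      ← (idem_commute hS hy).pow_right m |>.eq, ← mul_assoc (cas N N' ^ m),
      show cas N N' ^ m * idem N N' m = idem N N' m from hS.idem,
      show cas N N' ^ m = idem N N' m from rfl, sub_self, mul_zero]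
  rw [sub_pow_char_pow_of_commute (p := p) _ (Commute.one_right _), one_pow, sub_mul, sub_eq_zero, one_mul] at hzero
  refine ⟨g ^ p ^ (3 * m), pow_mem hg _, ?_⟩
  have hpow : ∀ k : ℕ, idem N N' m * (g : Module.End F V) ^ k = phi N N' m (A ^ k) := by
    intro k
    induction k with
    | zero => rw [pow_zero, pow_zero, mul_one, hS.phi_one]
    | succ k ih =>
      rw [pow_succ, pow_succ, hS.phi_mul, ← ih, ← hgA, mul_assoc (idem N N' m) ((g : Module.End F V) ^ k)
        (idem N N' m * _), ← mul_assoc ((g : Module.End F V) ^ k), ← (hc.pow_right k).eq,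
        mul_assoc (idem N N' m) ((g : Module.End F V) ^ k), ← mul_assoc (idem N N' m) (idem N N' m),
        hS.idem]
  rw [Units.val_pow_eq_pow_val, ← hpow, (hc.pow_right _).eq, ← hzero, mul_sub, mul_one, sub_add_cancel]

variable (hT : Tame G N)
include hT

omit hP in
lemma diag_scalar {B : Matrix.SpecialLinearGroup (Fin 2) (Ring' N N' m)} (h10 : B 1 0 = 0)
    {g : (Module.End F V)ˣ} (hg : g ∈ G)
    (hgB : (g : Module.End F V) = (1 - idem N N' m) + phi N N' m B) :
    ∃ c : F, (1 - idem N N' m) * N + emb N N' m (B 0 0) * N = c • N := by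
  refine (hT.diag g hg (1 - idem N N' m + emb N N' m (B 0 0)) ?_ ?_ ?_).imp fun c hc => by
    rw [← add_mul, hc]
  · have h : phi N N' m B * N = emb N N' m (B 0 0) * N := by
      simp only [phi, lin, add_mul, mul_assoc _ N N, mul_assoc _ (N' * N) N, mul_assoc N' N N,
        hS.sq, mul_zero, add_zero, h10, emb_zero, zero_mul]
      rw [mul_assoc, ← cas_mul_left hS.sq, ← mul_assoc, mul_assoc (emb N N' m (B 0 0)),
        hS.kinv_mul_cas, hS.emb_idem]
    rw [hgB, add_mul, h, add_mul]
  · have hinv : ((g⁻¹ : (Module.End F V)ˣ) : Module.End F V) =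
        (1 - idem N N' m) + phi N N' m B⁻¹ := by
      refine Units.inv_eq_of_mul_eq_one_right ?_
      have hee : (1 - idem N N' m) * (1 - idem N N' m) = 1 - idem N N' m := by
        rw [mul_sub, mul_one, sub_mul, one_mul, hS.idem, sub_self, sub_zero]
      rw [hgB, add_mul, mul_add, mul_add, ← hS.phi_mul, mul_inv_cancel, hS.phi_one, hee,
        sub_mul, one_mul, mul_sub, mul_one, (phi_idem hS _).1, (phi_idem hS _).2, sub_self,
        sub_self, add_zero, zero_add, sub_add_cancel]
    have h : N * phi N N' m B⁻¹ = emb N N' m (B 0 0) * N := by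
      have h10' : B⁻¹ 1 0 = 0 := by
        simp [Matrix.SpecialLinearGroup.coe_inv, Matrix.adjugate_fin_two, h10]
      have h11' : B⁻¹ 1 1 = B 0 0 := by
        simp [Matrix.SpecialLinearGroup.coe_inv, Matrix.adjugate_fin_two]
      have hc := fun x => ((hS.cen_emb (m := m) x).mul hS.cen_kinv).1
      simp only [phi, lin, mul_add, h10', emb_zero, zero_mul, mul_zero, add_zero, h11']
      rw [← mul_assoc N, ← (hc _).eq, mul_assoc _ N, ← mul_assoc N N N', hS.sq, zero_mul, mul_zero,
        ← mul_assoc N, ← (hS.cen_emb _).1.eq, mul_assoc _ N N, hS.sq, mul_zero, ← mul_assoc N,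
        ← (hc _).eq, mul_assoc _ N, ← mul_assoc N N' N, ← cas_mul_left hS.sq, ← mul_assoc,
        mul_assoc (emb N N' m (B 0 0)), hS.kinv_mul_cas, hS.emb_idem, zero_add, zero_add]
    rw [hinv, mul_add, h, mul_sub, mul_one, ← hS.cen_idem.1.eq, add_mul, sub_mul, one_mul]
  · intro x hx
    have h1 : ∀ f : Module.End F V, (f * N) x = 0 := fun f => by
      rw [Module.End.mul_apply, hx, map_zero]
    have he : idem N N' m = kinv N N' m * (N * N') + kinv N N' m * N' * N := by
      rw [mul_assoc _ N', ← mul_add, ← cas, hS.kinv_mul_cas]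
    refine ⟨(emb N N' m (B 0 0) * kinv N N' m * N' - kinv N N' m * N') x, ?_⟩
    have hgx : (g : Module.End F V) x - x = (phi N N' m B - idem N N' m) x := by
      rw [hgB]
      simp only [LinearMap.add_apply, LinearMap.sub_apply, Module.End.one_apply]
      abel
    rw [hgx, phi, lin, he]
    simp only [h10, emb_zero, zero_mul, LinearMap.add_apply, LinearMap.sub_apply,
      LinearMap.zero_apply, add_zero, ← mul_assoc _ N' N, h1, map_sub]
    simp only [← Module.End.mul_apply, ← mul_assoc, (hS.cen_kinv (m := m)).1.eq,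
      ← ((hS.cen_emb (m := m) (B 0 0)).mul hS.cen_kinv).1.eq]

omit hP in
lemma root_scalar {b : Ring' N N' m} {g : (Module.End F V)ˣ} (hg : g ∈ G)
    (hgB : (g : Module.End F V) = (1 - idem N N' m) + phi N N' m (uu b)) :
    ∃ c : F, emb N N' m b * N = c • N := by
  refine hT.root _ ?_ ?_ ⟨g, hg, ?_⟩
  · rintro _ ⟨x, rfl⟩
    refine ⟨emb N N' m b x, ?_⟩
    rw [← Module.End.mul_apply, ← (hS.cen_emb b).1.eq]
  · intro x hx
    rw [LinearMap.mem_ker] at hx ⊢
    rw [Module.End.mul_apply, hx, map_zero]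
  · have hk : emb N N' m (1 : Ring' N N' m) * kinv N N' m = kinv N N' m := by
      rw [emb_one, hS.idem_mul_kinv]
    rw [hgB]
    simp only [phi, lin, coe_uu, Matrix.of_apply, Matrix.cons_val_zero, Matrix.cons_val_one,
      Matrix.cons_val', Matrix.empty_val', Matrix.cons_val_fin_one, hk, emb_zero, zero_mul, add_zero]
    rw [add_right_comm (kinv N N' m * _), ← mul_add, ← cas, hS.kinv_mul_cas, ← add_assoc,
      sub_add_cancel]

/-- The pairing is a scalar when the corner is everything on the image of `N`. -/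
lemma scalar_of_pure (h2 : (2 : F) ≠ 0) (he : idem N N' m * N = N) :
    ∃ c : F, N * N' * N = c • N := by
  haveI := finite_ring (N := N) (N' := N') (m := m)
  set α := gen N N' m with hα
  suffices h : ∃ c : F, α = algebraMap F _ c by
    obtain ⟨c, hc⟩ := h
    refine ⟨c, ?_⟩
    have := congrArg (fun f => f * N) (congrArg (emb N N' m) hc)
    simp only [hα, emb_gen, emb_algebraMap, mul_assoc, he, smul_mul_assoc] at this
    rw [← this, cas_mul_left hS.sq]
  have hscal : ∀ {x : Ring' N N' m} {c : F}, emb N N' m x * N = c • N →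
      x = algebraMap F _ c := fun {x c} h => by
    have h0 : x + algebraMap F _ (-c) = 0 := hS.emb_eq_zero (by
      rw [emb_add, emb_algebraMap, add_mul, smul_mul_assoc, he, h, neg_smul, add_neg_cancel])
    rwa [map_neg, ← sub_eq_add_neg, sub_eq_zero] at h0
  -- the corner carries the whole group
  have hN' : idem N N' m * N' = N' := by
    set W := LinearMap.range N
    have hle : W.map N' ≤ LinearMap.range N' := LinearMap.map_le_range
    have hker : ∀ x ∈ W, N' x = 0 → x = 0 := by
      rintro _ ⟨y, rfl⟩ hy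
      have h1 : (cas N N' * N) y = 0 := by
        rw [cas_mul_left hS.sq, Module.End.mul_apply, Module.End.mul_apply, hy, map_zero]
      rw [← he, ← hS.kinv_mul_cas, mul_assoc, Module.End.mul_apply, h1, map_zero]
    have hinj : Function.Injective (N'.domRestrict W) := by
      rw [← LinearMap.ker_eq_bot, LinearMap.ker_eq_bot']
      intro x hx
      exact Subtype.ext (hker x x.2 hx)
    have hfr : finrank F (W.map N') = finrank F W := by
      rw [← LinearMap.range_domRestrict]; exact LinearMap.finrank_range_of_inj hinj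
    have heq : W.map N' = LinearMap.range N' :=
      Submodule.eq_of_le_of_finrank_le hle (hP.rank.trans hfr.ge)
    refine LinearMap.ext fun x => ?_
    obtain ⟨_, ⟨y, rfl⟩, hyx⟩ := heq.ge ⟨x, rfl⟩
    rw [Module.End.mul_apply, ← hyx, ← Module.End.mul_apply, ← Module.End.mul_apply, hS.cen_idem.2.eq,
      mul_assoc, he]
    rfl
  have hpure : ∀ A ∈ gam F α, ∃ g ∈ G,
      (g : Module.End F V) = (1 - idem N N' m) + phi N N' m A := by
    intro A hA
    obtain ⟨g, hg, ⟨a, b, c, d, hJ⟩, hgA⟩ := exists_lift hP hS hA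
    refine ⟨g, hg, ?_⟩
    have hsupp : (1 - idem N N' m) * ((g : Module.End F V) - 1) = 0 := by
      have hcen := fun p : F[X] => commute_aeval
        (show Commute (idem N N' m) (cas N N') from Commute.pow_self _ _) p
      rw [sub_mul, one_mul, sub_eq_zero, hJ, lin, mul_add, mul_add, mul_add]
      simp only [← mul_assoc, (hcen a).eq, (hcen b).eq, (hcen c).eq, (hcen d).eq]
      simp only [mul_assoc, he, hN', ← mul_assoc (idem N N' m) N, ← mul_assoc (idem N N' m) N']
    rw [mul_sub, sub_eq_zero, mul_one, sub_mul, one_mul, hgA, sub_eq_iff_eq_add] at hsupp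
    exact hsupp
  have hupper : ∀ b, uu b ∈ gam F α → ∃ c : F, b = algebraMap F _ c := fun b hb => by
    obtain ⟨g, hg, hgA⟩ := hpure _ hb
    obtain ⟨c, hc⟩ := root_scalar hS hT hg hgA
    exact ⟨c, hscal hc⟩
  by_cases h3 : Nat.card F ≠ 3
  · have htop := upperSet_eq_top (k := F) h2 h3 α (isUnit_gen hS) exists_aeval
    exact hupper α (by rw [← mem_upperSet, htop]; exact AddSubgroup.mem_top _)
  push Not at h3
  haveI := Fintype.ofFinite F
  haveI : Fact (Nat.Prime 3) := ⟨Nat.prime_three⟩
  have hF3 : ∀ t : F, t ≠ 0 → t = 1 ∨ t = -1 := fun t ht => by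
    have := FiniteField.pow_card_sub_one_eq_one t ht
    rw [← Nat.card_eq_fintype_card, h3, pow_two] at this
    exact mul_self_eq_one_iff.1 this
  have h2R : IsUnit (2 : Ring' N N' m) := by
    have := (IsUnit.mk0 _ h2).map (algebraMap F (Ring' N N' m))
    rwa [map_ofNat] at this
  have hdiag : ∀ B ∈ gam F α, B 1 0 = 0 → ∃ s : F, B 0 0 = algebraMap F _ s := fun B hB h10 => by
    obtain ⟨g, hg, hgA⟩ := hpure B hB
    obtain ⟨c, hc⟩ := diag_scalar hS hT h10 hg hgA
    rw [sub_mul, one_mul, he, sub_self, zero_add] at hc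
    exact ⟨c, hscal hc⟩
  -- elements fixing the upper unitriangular subgroup
  have hnorm : ∀ B ∈ gam F α, ∀ t : F, B * uu 1 * B⁻¹ = uu (algebraMap F _ t) →
      B 1 0 = 0 ∧ B 1 1 = B 0 0 ∧ (B 0 0 = 1 ∨ B 0 0 = -1) := by
    intro B hB t ht
    have hc := conj_uu B 1
    rw [ht, coe_uu] at hc
    have e00 := congrFun (congrFun hc 0) 0
    have e01 := congrFun (congrFun hc 0) 1
    have e10 := congrFun (congrFun hc 1) 0
    simp at e00 e01 e10
    have h10 : B 1 0 = 0 := by
      have hd := det_eq B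
      linear_combination B 1 1 * e00 - (B 1 0) * hd - B 0 1 * e10
    obtain ⟨s, hs⟩ := hdiag B hB h10
    have hd := det_eq B
    rw [h10, mul_zero, sub_zero] at hd
    rcases eq_or_ne s 0 with rfl | hs0
    · rw [hs, map_zero, zero_mul] at hd
      have := subsingleton_of_zero_eq_one hd
      exact ⟨h10, Subsingleton.elim _ _, Or.inl (Subsingleton.elim _ _)⟩
    have hB00 : B 0 0 = 1 ∨ B 0 0 = -1 := by
      rcases hF3 s hs0 with rfl | rfl
      · left; simp [hs]
      · right; simp [hs]
    refine ⟨h10, ?_, hB00⟩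
    rcases hB00 with h | h <;> rw [h] at hd ⊢
    · linear_combination hd
    · linear_combination -hd
  set Γ := gam F α
  let φ : Multiplicative F →* Γ :=
    MonoidHom.mk' (fun t => ⟨uu (algebraMap F _ t.toAdd), uu_mem_gam F α t.toAdd⟩)
      (fun s t => Subtype.ext (by
        show uu (algebraMap F _ (s * t).toAdd) = uu _ * uu _
        rw [toAdd_mul, map_add, uu_add]))
  rcases subsingleton_or_nontrivial (Ring' N N' m) with hR | hR
  · exact ⟨0, Subsingleton.elim _ _⟩
  have hφ : Function.Injective φ := by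
    intro s t h
    have := congrArg (fun x : Γ => (x.1 : Matrix (Fin 2) (Fin 2) (Ring' N N' m)) 0 1) h
    simp [φ] at this
    exact this
  have hcardP : Nat.card φ.range = 3 := by
    rw [← h3, ← Nat.card_congr (MonoidHom.ofInjective hφ).toEquiv, Nat.card_congr Multiplicative.toAdd]
  have hPg : IsPGroup 3 φ.range := IsPGroup.of_card (n := 1) (by rw [hcardP, pow_one])
  obtain ⟨S, hPS⟩ := hPg.exists_le_sylow
  have hu1 : φ (Multiplicative.ofAdd 1) ∈ φ.range := ⟨_, rfl⟩
  have hconj : ∀ x : Γ, ∀ z ∈ φ.range, x * z * x⁻¹ ∈ φ.range → z ≠ 1 →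
      x.1 1 0 = 0 ∧ x.1 1 1 = x.1 0 0 ∧ (x.1 0 0 = 1 ∨ x.1 0 0 = -1) := by
    rintro x _ ⟨t, rfl⟩ ⟨t', ht'⟩ hne
    have h' := congrArg Subtype.val ht'
    change uu (algebraMap F _ t'.toAdd) = x.1 * uu (algebraMap F _ t.toAdd) * x.1⁻¹ at h'
    rcases hF3 t.toAdd (fun h => hne (by
      rw [show t = 1 from h, map_one])) with h | h <;> rw [h] at h'
    · rw [map_one] at h'
      exact hnorm x.1 x.2 _ h'.symm
    · rw [map_neg, map_one, ← uu_inv] at h'
      refine hnorm x.1 x.2 (-t'.toAdd) ?_
      rw [map_neg, ← uu_inv, h']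
      group
  have hu1ne : φ (Multiplicative.ofAdd 1) ≠ 1 := fun h =>
    one_ne_zero (congrArg Multiplicative.toAdd (hφ (h.trans (map_one φ).symm)) : (1 : F) = 0)
  have hSP : (S : Subgroup Γ) = φ.range := by
    by_contra hne
    have hlt : φ.range < (S : Subgroup Γ) := lt_of_le_of_ne hPS (Ne.symm hne)
    haveI : Group.IsNilpotent (S : Subgroup Γ) := S.isPGroup'.isNilpotent
    have hlt' : (φ.range).subgroupOf (S : Subgroup Γ) < ⊤ := lt_top_iff_ne_top.2 fun h =>
      hne (le_antisymm (Subgroup.subgroupOf_eq_top.1 h) hPS)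
    obtain ⟨x, hxN, hxP⟩ := SetLike.exists_of_lt (normalizerCondition_of_isNilpotent _ hlt')
    have hxu := (Subgroup.mem_normalizer_iff.1 hxN ⟨_, hPS hu1⟩).1
      (show (⟨_, hPS hu1⟩ : (S : Subgroup Γ)) ∈ (φ.range).subgroupOf (S : Subgroup Γ) from hu1)
    obtain ⟨h10, h11, h00⟩ := hconj x.1 _ hu1 hxu hu1ne
    rcases h00 with h00 | h00
    · refine hxP ?_
      have hx : x.1.1 = uu (x.1.1 0 1) := by
        apply sl_ext <;> simp [h10, h11, h00]
      obtain ⟨c, hc⟩ := hupper _ (hx ▸ x.1.2)
      exact ⟨Multiplicative.ofAdd c, Subtype.ext ((congrArg uu hc.symm).trans hx.symm)⟩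
    · obtain ⟨k, hk⟩ := S.isPGroup' x
      have hpw : ∀ j : ℕ, (x.1.1 ^ j) 1 0 = 0 ∧ (x.1.1 ^ j) 0 0 = (-1) ^ j := by
        intro j
        induction j with
        | zero => simp
        | succ j ih =>
          simp only [Matrix.SpecialLinearGroup.coe_pow] at ih ⊢
          rw [pow_succ]
          simp [Matrix.mul_apply, Fin.sum_univ_two, ih.1, ih.2, h10, h00, pow_succ]
      have h1 := congrArg (fun z : Γ => (z.1 : Matrix (Fin 2) (Fin 2) (Ring' N N' m)) 0 0)
        (congrArg Subtype.val hk)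
      simp only [Subgroup.coe_pow, Subgroup.coe_one, Matrix.SpecialLinearGroup.coe_one,
        Matrix.one_apply_eq] at h1
      have ho : Odd (3 ^ k) := Odd.pow (by decide)
      rw [(hpw _).2] at h1
      obtain ⟨j, hj⟩ := ho
      have e : ∀ a : Ring' N N' m, a * a = 1 → a ^ (3 ^ k) = a := fun a ha => by
        rw [hj, pow_succ, pow_mul, pow_two, ha, one_pow, one_mul]
      rw [e _ (by ring)] at h1
      exact zero_ne_one (α := Ring' N N' m) (h2R.mul_left_cancel (by linear_combination h1))
  have hNC : Subgroup.normalizer ((S : Subgroup Γ) : Set Γ) ≤ Subgroup.centralizer ((S : Subgroup Γ) : Set Γ) := by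
    intro x hx z hz
    rw [hSP] at hz
    obtain ⟨t, rfl⟩ := hz
    have hxu := (Subgroup.mem_normalizer_iff.1 hx _).1 (hSP ▸ hu1)
    rw [hSP] at hxu
    obtain ⟨h10, h11, h00⟩ := hconj x _ hu1 hxu hu1ne
    refine Subtype.ext ?_
    show uu (algebraMap F _ t.toAdd) * x.1 = x.1 * uu (algebraMap F _ t.toAdd)
    apply sl_ext <;> simp [Matrix.mul_apply, Fin.sum_univ_two, h10, h11, mul_comm]
    ring
  haveI : Finite Γ := inferInstance
  let τ := MonoidHom.transferSylow S hNC
  have hτ1 : τ (φ (Multiplicative.ofAdd 1)) ≠ 1 := fun h => hu1ne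
    (Subgroup.disjoint_def.1 (MonoidHom.ker_transferSylow_disjoint S hNC _ S.isPGroup') h (hPS hu1))
  have htrace : ∀ x : Γ, τ x ≠ 1 → x.1 0 0 + x.1 1 1 = 2 ∨ x.1 0 0 + x.1 1 1 = -2 := by
    intro x hx
    have h3x : 3 ∣ orderOf x := by
      have h1 : orderOf (τ x) ∣ Nat.card (S : Subgroup Γ) := orderOf_dvd_natCard _
      rw [(congrArg (fun H : Subgroup Γ => Nat.card H) hSP).trans hcardP, Nat.dvd_prime Nat.prime_three] at h1
      rcases h1 with h1 | h1
      · exact absurd (orderOf_eq_one_iff.1 h1) hx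
      · exact h1 ▸ orderOf_map_dvd τ x
    set z := x ^ (orderOf x / 3) with hz
    have hzo : orderOf z = 3 := by
      rw [hz, orderOf_pow_of_dvd (Nat.div_pos (Nat.le_of_dvd (orderOf_pos x) h3x) (by omega)).ne'
        (Nat.div_dvd_of_dvd h3x), Nat.div_div_self h3x (orderOf_pos x).ne']
    obtain ⟨S', hS'⟩ := (IsPGroup.of_card (p := 3) (n := 1) (G := Subgroup.zpowers z) (by
      rw [Nat.card_zpowers, hzo, pow_one])).exists_le_sylow
    obtain ⟨r, hr⟩ := MulAction.exists_smul_eq Γ S' S
    have hmem : r * z * r⁻¹ ∈ φ.range := by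
      rw [← hSP, ← hr]
      exact Subgroup.smul_mem_pointwise_smul z (MulAut.conj r) _ (hS' (Subgroup.mem_zpowers z))
    have hfix : (r * x * r⁻¹) * (r * z * r⁻¹) * (r * x * r⁻¹)⁻¹ = r * z * r⁻¹ := by
      have hcz : x * z * x⁻¹ = z := by
        rw [hz, (Commute.self_pow x _).eq, mul_inv_cancel_right]
      calc (r * x * r⁻¹) * (r * z * r⁻¹) * (r * x * r⁻¹)⁻¹ = r * (x * z * x⁻¹) * r⁻¹ := by group
        _ = _ := by rw [hcz]
    obtain ⟨-, h11, h00⟩ := hconj (r * x * r⁻¹) _ hmem (hfix.symm ▸ hmem) (fun h => by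
      rw [conj_eq_one_iff] at h
      rw [h, orderOf_one] at hzo
      omega)
    have htr : x.1 0 0 + x.1 1 1 = (r * x * r⁻¹).1 0 0 + (r * x * r⁻¹).1 1 1 := by
      have := Matrix.trace_mul_comm ((r.1 * x.1 : Matrix.SpecialLinearGroup (Fin 2) _) :
        Matrix (Fin 2) (Fin 2) (Ring' N N' m)) (r⁻¹).1.1
      rw [Matrix.trace_fin_two, Matrix.trace_fin_two, ← Matrix.SpecialLinearGroup.coe_mul,
        ← Matrix.SpecialLinearGroup.coe_mul] at this
      convert this.symm using 2 <;> simp
    rw [htr, h11]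
    rcases h00 with h | h <;> rw [h]
    · left; norm_num
    · right; norm_num
  let u : Γ := φ (Multiplicative.ofAdd 1)
  let v : Γ := ⟨vv (algebraMap F _ 1 * α), vv_mem_gam F α 1⟩
  have hsol : ∀ c : F, c ≠ 0 → algebraMap F _ c * α + 2 = (2 : Ring' N N' m) ∨
      algebraMap F _ c * α + 2 = -2 → ∃ d : F, α = algebraMap F _ d := by
    intro c hc h
    rcases h with h | h
    · refine ⟨0, ?_⟩
      have : algebraMap F _ c * α = 0 := by linear_combination h
      rw [map_zero]
      exact ((IsUnit.mk0 c hc).map (algebraMap F (Ring' N N' m))).mul_left_cancel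
        (this.trans (mul_zero _).symm)
    · refine ⟨-4 / c, ?_⟩
      refine ((IsUnit.mk0 c hc).map (algebraMap F (Ring' N N' m))).mul_left_cancel ?_
      rw [← map_mul, mul_div_cancel₀ _ hc, map_neg, map_ofNat]
      linear_combination h
  by_cases ha : τ (u * v) ≠ 1
  · refine hsol 1 one_ne_zero ((htrace _ ha).imp ?_ ?_) <;>
    · intro h
      simp [u, v, φ, Matrix.mul_apply, Fin.sum_univ_two] at h ⊢
      linear_combination h
  · push Not at ha
    have hb : τ (u * v⁻¹) ≠ 1 := fun h => by
      have h1 : τ u * τ u = 1 := by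
        rw [map_mul] at ha h
        rw [map_inv, mul_inv_eq_one] at h
        nth_rw 2 [h]
        exact ha
      have h3u : τ u ^ 3 = 1 := by
        have := pow_card_eq_one' (x := τ u)
        rwa [(congrArg (fun H : Subgroup Γ => Nat.card H) hSP).trans hcardP] at this
      rw [pow_succ, pow_two, h1, one_mul] at h3u
      exact hτ1 h3u
    refine hsol (-1) (neg_ne_zero.2 one_ne_zero) ((htrace _ hb).imp ?_ ?_) <;>
    · intro h
      simp [u, v, φ, vv_inv, Matrix.mul_apply, Fin.sum_univ_two] at h ⊢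
      linear_combination h

/-- An involution rules out a corner smaller than the image of `N`. -/
lemma idem_of_ne_zero (h2 : (2 : F) ≠ 0) (hne : idem N N' m * N ≠ 0) :
    idem N N' m * N = N := by
  by_contra hmix
  haveI := finite_ring (N := N) (N' := N') (m := m)
  haveI : Nontrivial (Ring' N N' m) := ⟨⟨1, 0, fun h => hne (by
    rw [← emb_one, h, emb_zero, zero_mul])⟩⟩
  obtain ⟨P, hPodd, hpure⟩ := exists_pure hP hS h2
  obtain ⟨Q, hQ⟩ := Ideal.exists_maximal (Ring' N N' m)
  haveI := hQ
  letI := Ideal.Quotient.field Q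
  haveI : Finite (Ring' N N' m ⧸ Q) := Finite.of_surjective _ Ideal.Quotient.mk_surjective
  have h2R : IsUnit (2 : Ring' N N' m) := by
    have := (IsUnit.mk0 _ h2).map (algebraMap F (Ring' N N' m))
    rwa [map_ofNat] at this
  have h2Q : (2 : Ring' N N' m ⧸ Q) ≠ 0 := by
    have := h2R.map (Ideal.Quotient.mk Q)
    rw [map_ofNat] at this
    exact this.ne_zero
  have heven := two_dvd_card h2Q ((isUnit_gen hS).map (Ideal.Quotient.mk Q)).ne_zero
    ((gam F (gen N N' m)).map (Matrix.SpecialLinearGroup.map (Ideal.Quotient.mk Q)))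
    ⟨uu (algebraMap F _ 1), uu_mem_gam F _ 1, by rw [map_uu, map_one, map_one]⟩
    ⟨vv (algebraMap F _ 1 * gen N N' m), vv_mem_gam F _ 1, by rw [map_vv, map_one, one_mul]⟩
  haveI : Fact (Nat.Prime 2) := ⟨Nat.prime_two⟩
  obtain ⟨⟨A, hA⟩, hAo⟩ := exists_prime_orderOf_dvd_card' 2 (heven.trans (Subgroup.card_map_dvd _ _))
  have hAA : A * A = 1 := by
    have := pow_orderOf_eq_one (⟨A, hA⟩ : gam F (gen N N' m))
    rw [hAo, pow_two] at this
    exact congrArg Subtype.val this
  have hAne : A ≠ 1 := fun h => by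
    subst h
    rw [show (⟨1, hA⟩ : gam F (gen N N' m)) = 1 from rfl, orderOf_one] at hAo
    omega
  have hinv : A⁻¹ = A := inv_eq_of_mul_eq_one_left hAA
  have e01 := congrArg (fun z : Matrix.SpecialLinearGroup (Fin 2) (Ring' N N' m) => z 0 1) hinv
  have e10 := congrArg (fun z : Matrix.SpecialLinearGroup (Fin 2) (Ring' N N' m) => z 1 0) hinv
  have e11 := congrArg (fun z : Matrix.SpecialLinearGroup (Fin 2) (Ring' N N' m) => z 1 1) hinv
  simp [Matrix.SpecialLinearGroup.coe_inv, Matrix.adjugate_fin_two] at e01 e10 e11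
  have h01 : A 0 1 = 0 := h2R.mul_left_cancel (by linear_combination -e01)
  have h10 : A 1 0 = 0 := h2R.mul_left_cancel (by linear_combination -e10)
  obtain ⟨g, hg, hgA⟩ := hpure A hA
  obtain ⟨k, rfl⟩ := hPodd
  rw [pow_succ, pow_mul, pow_two, hAA, one_pow, one_mul] at hgA
  obtain ⟨c, hc⟩ := diag_scalar hS hT h10 hg hgA
  have hc1 : c = 1 := by
    have h := congrArg (fun f => (1 - idem N N' m) * f) hc
    simp only [mul_add, ← mul_assoc, mul_smul_comm] at h
    rw [show (1 - idem N N' m) * (1 - idem N N' m) = 1 - idem N N' m by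
        rw [mul_sub, mul_one, sub_mul, one_mul, hS.idem, sub_self, sub_zero],
      show (1 - idem N N' m) * emb N N' m (A 0 0) = 0 by
        rw [sub_mul, one_mul, ← emb_one, ← hS.emb_mul, one_mul, sub_self],
      zero_mul, add_zero] at h
    by_contra hc1
    have h0 : (1 - idem N N' m) * N = 0 := by
      have : (c - 1) • ((1 - idem N N' m) * N) = 0 := by rw [sub_smul, one_smul, ← h, sub_self]
      exact (smul_eq_zero.1 this).resolve_left (sub_ne_zero.2 hc1)
    rw [sub_mul, one_mul, sub_eq_zero] at h0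
    exact hmix h0.symm
  rw [hc1, one_smul, sub_mul, one_mul, sub_add, sub_eq_self, sub_eq_zero] at hc
  have h00 : A 0 0 = 1 := by
    have : A 0 0 + algebraMap F _ (-1 : F) = 0 := hS.emb_eq_zero (by
      rw [emb_add, emb_algebraMap, add_mul, smul_mul_assoc, ← hc, neg_one_smul, add_neg_cancel])
    rwa [map_neg, map_one, ← sub_eq_add_neg, sub_eq_zero] at this
  exact hAne (sl_ext (by simpa using h00) (by simpa using h01) (by simpa using h10)
    (by simpa [h00] using e11.symm))

end

omit [FiniteDimensional F V] in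
lemma finite_End [FiniteDimensional F V] : Finite (Module.End F V) := by
  haveI : Finite V := Module.finite_of_finite F
  exact DFunLike.finite _

/-- **The pairing of two conjugate quadratic elements is scalar.** -/
theorem pairing_scalar (h2 : (2 : F) ≠ 0) (hP : Pair G N N') (hT : Tame G N) :
    ∃ c : F, N * N' * N = c • N := by
  haveI := finite_End (F := F) (V := V)
  obtain ⟨m, hm, hidem⟩ := GeoLow.TensorSO.exists_idempotent_pow (cas N N')
  have hS : Split N N' m := ⟨hm, hP.sq, hP.sq', hidem⟩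
  by_cases h0 : idem N N' m * N = 0
  · exact ⟨0, by rw [zero_smul, ← cas_mul_left hP.sq]; exact Pair.nilpotent h2 hT m N' hP h0⟩
  · exact scalar_of_pure hP hS hT h2 (idem_of_ne_zero hP hS hT h2 h0)

end Cfsg.Agent.MaxSub.QuadPair
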