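import Mathlib

/-!
Two quadratic unipotent elements `1 + N`, `1 + N'` with all their multiples in a group: the nilpotent case
of the Casimir element `NN' + N'N`.
-/

set_option autoImplicit false

namespace Cfsg.Agent.MaxSub.QuadPair

open Module

variable {F V : Type*} [Field F] [AddCommGroup V] [Module F V]

/-- `1 + f` is in `G`. -/
def MemG (G : Subgroup (Module.End F V)ˣ) (f : Module.End F V) : Prop :=
  ∃ g ∈ G, (g : Module.End F V) = 1 + f

/-- Two square-zero maps of the same rank, all whose multiples give members of `G`. -/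
structure Pair (G : Subgroup (Module.End F V)ˣ) (N N' : Module.End F V) : Prop where
  sq : N * N = 0
  sq' : N' * N' = 0
  rank : finrank F (LinearMap.range N') ≤ finrank F (LinearMap.range N)
  mem : ∀ t : F, MemG G (t • N)
  mem' : ∀ t : F, MemG G (t • N')

/-- What is assumed about the members near `1 + N`. -/
structure Tame (G : Subgroup (Module.End F V)ˣ) (N : Module.End F V) : Prop where
  root : ∀ L : Module.End F V, LinearMap.range L ≤ LinearMap.range N →
    LinearMap.ker N ≤ LinearMap.ker L → MemG G L → ∃ c : F, L = c • N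
  diag : ∀ g ∈ G, ∀ r : Module.End F V, (g : Module.End F V) * N = r * N →
    N * ((g⁻¹ : (Module.End F V)ˣ) : Module.End F V) = r * N →
    (∀ x, N x = 0 → (g : Module.End F V) x - x ∈ LinearMap.range N) → ∃ c : F, r * N = c • N

variable {G : Subgroup (Module.End F V)ˣ} {N N' : Module.End F V}

lemma inv_eq_one_sub {g : (Module.End F V)ˣ} {f : Module.End F V}
    (hg : (g : Module.End F V) = 1 + f) (hf : f * f = 0) :
    ((g⁻¹ : (Module.End F V)ˣ) : Module.End F V) = 1 - f :=
  Units.inv_eq_of_mul_eq_one_right (by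
    rw [hg, add_mul, one_mul, mul_sub, mul_one, hf, sub_zero, sub_add_cancel])

lemma MemG.neg {f : Module.End F V} (h : MemG G f) (hf : f * f = 0) : MemG G (-f) := by
  obtain ⟨g, hg, hgf⟩ := h
  exact ⟨g⁻¹, inv_mem hg, by rw [inv_eq_one_sub hgf hf, sub_eq_add_neg]⟩

lemma MemG.add {f f' : Module.End F V} (h : MemG G f) (h' : MemG G f') (hff : f * f' = 0) :
    MemG G (f + f') := by
  obtain ⟨g, hg, hgf⟩ := h
  obtain ⟨g', hg', hgf'⟩ := h'
  refine ⟨g * g', mul_mem hg hg', ?_⟩
  rw [Units.val_mul, hgf, hgf', add_mul, one_mul, mul_add, mul_one, hff, add_zero]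
  abel

/-- The Casimir element. -/
def cas (N N' : Module.End F V) : Module.End F V := N * N' + N' * N

lemma cas_mul_left (hs : N * N = 0) : cas N N' * N = N * N' * N := by
  rw [cas, add_mul, mul_assoc N' N N, hs, mul_zero, add_zero]

lemma cas_comm_left (hs : N * N = 0) : cas N N' * N = N * cas N N' := by
  rw [cas_mul_left hs, cas, mul_add, ← mul_assoc, ← mul_assoc, hs, zero_mul, zero_add]

lemma cas_comm_right (hs' : N' * N' = 0) : cas N N' * N' = N' * cas N N' := by
  rw [cas, add_mul, mul_add, mul_assoc N N' N', hs', mul_zero, zero_add, ← mul_assoc N' N' N, hs',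
    zero_mul, add_zero, mul_assoc]

variable [FiniteDimensional F V]

/-- The conjugate of `1 + N` by `1 + N'`. -/
lemma Pair.next (hP : Pair G N N') :
    Pair G N ((1 + N') * N * (1 - N')) ∧
      N * ((1 + N') * N * (1 - N')) * N = -(cas N N' * cas N N' * N) := by
  have hinv : (1 - N') * (1 + N') = 1 := by
    rw [mul_add, mul_one, sub_mul, one_mul, hP.sq', sub_zero, sub_add_cancel]
  refine ⟨⟨hP.sq, ?_, ?_, hP.mem, fun t => ?_⟩, ?_⟩
  · calc (1 + N') * N * (1 - N') * ((1 + N') * N * (1 - N'))
        = (1 + N') * N * ((1 - N') * (1 + N')) * N * (1 - N') := by simp only [mul_assoc]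
      _ = 0 := by rw [hinv, mul_one, mul_assoc (1 + N') N N, hP.sq, mul_zero, zero_mul]
  · rw [mul_assoc, Module.End.mul_eq_comp, Module.End.mul_eq_comp, LinearMap.range_comp]
    exact (Submodule.finrank_map_le _ _).trans (Submodule.finrank_mono (LinearMap.range_comp_le_range _ _))
  · obtain ⟨g, hg, hgt⟩ := hP.mem t
    obtain ⟨k, hk, hkt⟩ := hP.mem' 1
    rw [one_smul] at hkt
    refine ⟨k * g * k⁻¹, mul_mem (mul_mem hk hg) (inv_mem hk), ?_⟩
    rw [Units.val_mul, Units.val_mul, hgt, hkt, inv_eq_one_sub hkt hP.sq', mul_add, mul_one,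
      mul_smul_comm, add_mul, smul_mul_assoc]
    congr 1
    rw [mul_sub, mul_one, add_mul, one_mul, hP.sq', add_zero, add_sub_cancel_right]
  · have e : N * ((1 + N') * N * (1 - N')) * N = -(N * N' * N * N' * N) := by
      rw [add_mul, one_mul, add_mul, mul_add N, add_mul, ← mul_assoc N N, hP.sq, zero_mul, zero_mul,
        zero_add, mul_sub, mul_one, mul_sub, sub_mul, ← mul_assoc N, ← mul_assoc N,
        mul_assoc (N * N') N N, hP.sq, mul_zero, zero_sub]
      simp only [mul_assoc]
    rw [e, mul_assoc (cas N N'), cas_mul_left hP.sq, neg_inj]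
    rw [← mul_assoc, ← mul_assoc, cas_mul_left hP.sq]

/-- The commutator trick when the square of the Casimir element kills `N`. -/
lemma Pair.four_mem (hP : Pair G N N') (h2 : cas N N' * cas N N' * N = 0) :
    MemG G ((4 : F) • (cas N N' * N)) := by
  set K := cas N N' with hK
  have hNN := hP.sq
  have hKN : K * N = N * K := cas_comm_left hNN
  have hKN' : K * N' = N' * K := cas_comm_right hP.sq'
  have hNNN : N * N' * N = K * N := (cas_mul_left hNN).symm
  obtain ⟨Y, hY⟩ : ∃ Y, Y = K * (N * N' - N' * N) := ⟨_, rfl⟩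
  obtain ⟨A, hA⟩ : ∃ A, A = K * N := ⟨_, rfl⟩
  rw [← hA]
  have hAY : A * Y = 0 := by
    calc A * Y = K * (N * K) * (N * N' - N' * N) := by rw [hA, hY]; simp only [mul_assoc]
      _ = K * (K * N) * (N * N' - N' * N) := by rw [← hKN]
      _ = 0 := by rw [← mul_assoc K K N, h2, zero_mul]
  have hKNN' : K * (N * N') = N * N' * K := by
    rw [← mul_assoc, hKN, mul_assoc, hKN', mul_assoc]
  have hKN'N : K * (N' * N) = N' * N * K := by
    rw [← mul_assoc, hKN', mul_assoc, hKN, mul_assoc]
  have hKd : K * (N * N' - N' * N) = (N * N' - N' * N) * K := by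
    rw [mul_sub, sub_mul, hKNN', hKN'N]
  have hYA : Y * A = 0 := by
    calc Y * A = (N * N' - N' * N) * (K * K * N) := by
          rw [hY, hKd, hA, mul_assoc, mul_assoc]
      _ = 0 := by rw [h2, mul_zero]
  have hAA : A * A = 0 := by
    calc A * A = K * (N * K) * N := by rw [hA]; simp only [mul_assoc]
      _ = K * K * (N * N) := by rw [← hKN]; simp only [mul_assoc]
      _ = 0 := by rw [hNN, mul_zero]
  have hK3 : K * K * K = 0 := by
    conv_lhs => arg 2; rw [hK, cas]
    rw [mul_add, ← mul_assoc (K * K), h2, zero_mul, zero_add, mul_assoc K K, ← mul_assoc K N' N,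
      hKN', ← mul_assoc K, ← mul_assoc K, hKN', mul_assoc N' K K, mul_assoc N', h2, mul_zero]
  have hYY : Y * Y = 0 := by
    have e : (N * N' - N' * N) * (N * N' - N' * N) = K * (N * N') + K * (N' * N) := by
      rw [sub_mul, mul_sub, mul_sub]
      have e1 : N * N' * (N * N') = K * (N * N') := by rw [← mul_assoc, hNNN, mul_assoc]
      have e2 : N' * N * (N' * N) = K * (N' * N) := by
        rw [mul_assoc N' N, ← mul_assoc N N' N, hNNN, ← mul_assoc, ← hKN', mul_assoc]
      have e3 : N * N' * (N' * N) = 0 := by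
        rw [mul_assoc N, ← mul_assoc N' N' N, hP.sq', zero_mul, mul_zero]
      have e4 : N' * N * (N * N') = 0 := by
        rw [mul_assoc N', ← mul_assoc N N N', hNN, zero_mul, mul_zero]
      rw [e1, e2, e3, e4]
      abel
    calc Y * Y = K * ((N * N' - N' * N) * K) * (N * N' - N' * N) := by
          rw [hY]; simp only [mul_assoc]
      _ = K * K * ((N * N' - N' * N) * (N * N' - N' * N)) := by
          rw [← hKd]; simp only [mul_assoc]
      _ = K * K * (K * K) := by rw [e, ← mul_add]; rfl
      _ = 0 := by rw [← mul_assoc, hK3, zero_mul]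
  have key : ∀ s : F, MemG G ((2 * s) • A - (s * s) • Y) := by
    intro s
    obtain ⟨g, hg, hgs⟩ := hP.mem 1
    obtain ⟨k, hk, hks⟩ := hP.mem' s
    rw [one_smul] at hgs
    have hksq : s • N' * (s • N') = 0 := by rw [smul_mul_smul_comm, hP.sq', smul_zero]
    set M := (1 + s • N') * N * (1 - s • N') with hM
    have hMval : M = N + s • (N' * N - N * N') - (s * s) • (N' * N * N') := by
      rw [hM]
      simp only [add_mul, mul_sub, one_mul, mul_one, mul_smul_comm, smul_mul_assoc, smul_sub]
      module
    have hMM : M * M = 0 := by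
      calc M * M = (1 + s • N') * N * ((1 - s • N') * (1 + s • N')) * N * (1 - s • N') := by
            rw [hM]; simp only [mul_assoc]
        _ = 0 := by
          rw [show (1 - s • N') * (1 + s • N') = 1 by
            rw [mul_add, mul_one, sub_mul, one_mul, hksq, sub_zero, sub_add_cancel], mul_one,
            mul_assoc (1 + s • N') N N, hNN, mul_zero, zero_mul]
    have hNM : N * M = s • A - (s * s) • (K * (N * N')) := by
      rw [hMval]
      simp only [mul_add, mul_sub, mul_smul_comm, hNN, ← mul_assoc, zero_mul, sub_zero, zero_add,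
        hNNN, hA]
    have hMN : M * N = -(s • A) - (s * s) • (K * (N' * N)) := by
      rw [hMval]
      simp only [add_mul, sub_mul, smul_mul_assoc, hNN, mul_assoc N' N N, mul_zero, zero_sub,
        zero_add]
      rw [hNNN, smul_neg, hA,
        show N' * N * N' * N = N' * (N * N' * N) by simp only [mul_assoc], hNNN, ← mul_assoc N' K,
        ← hKN', mul_assoc K N']
    have hNMN : N * M * N = 0 := by
      rw [hNM, sub_mul, smul_mul_assoc, smul_mul_assoc, hA, mul_assoc K N N, hNN, mul_zero,
        mul_assoc K (N * N') N, hNNN, ← mul_assoc, h2]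
      simp
    have hMNM : M * N * M = 0 := by
      have e1 : A * M = 0 := by
        rw [hA, mul_assoc, hNM, mul_sub, mul_smul_comm, mul_smul_comm, hA, ← mul_assoc, h2,
          ← mul_assoc K K, ← mul_assoc (K * K), h2, zero_mul]
        simp
      have e2 : K * (N' * N) * M = 0 := by
        rw [mul_assoc K, mul_assoc N', hNM]
        simp only [mul_sub, mul_smul_comm, hA]
        rw [← mul_assoc N' K N, ← hKN', mul_assoc K N' N, ← mul_assoc K K, mul_assoc (K) K,
          show K * (N' * (K * (N * N'))) = N' * (K * K * N) * N' by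
            rw [← mul_assoc K N', hKN']; simp only [mul_assoc],
          show K * (K * (N' * N)) = N' * (K * K * N) by
            rw [← mul_assoc K N', hKN', mul_assoc, ← mul_assoc K N', hKN']; simp only [mul_assoc],
          h2, mul_zero, zero_mul]
        simp
      rw [hMN, sub_mul, neg_mul, smul_mul_assoc, smul_mul_assoc, e1, e2]
      simp
    have hmemM : MemG G M := ⟨k * g * k⁻¹, mul_mem (mul_mem hk hg) (inv_mem hk), by
      rw [Units.val_mul, Units.val_mul, hgs, hks, inv_eq_one_sub hks hksq, mul_add, mul_one,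
        add_mul, ← hM]
      congr 1
      rw [mul_sub, mul_one, add_mul, one_mul, hksq, add_zero, add_sub_cancel_right]⟩
    obtain ⟨m, hm, hms⟩ := hmemM
    refine ⟨g * m * g⁻¹ * m⁻¹, mul_mem (mul_mem (mul_mem hg hm) (inv_mem hg)) (inv_mem hm), ?_⟩
    rw [Units.val_mul, Units.val_mul, Units.val_mul, hgs, hms, inv_eq_one_sub hgs hNN,
      inv_eq_one_sub hms hMM]
    have e : (1 + N) * (1 + M) * (1 - N) * (1 - M) = 1 + (N * M - M * N + M * N * M) := by
      calc (1 + N) * (1 + M) * (1 - N) * (1 - M)
          = 1 + (N * M - M * N + M * N * M) - N * N + (N * N) * M - N * M * N + N * M * N * M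
              - M * M - N * (M * M) := by noncomm_ring
        _ = _ := by rw [hNN, hMM, hNMN]; simp
    rw [e, hMNM, hNM, hMN, hY, mul_sub, smul_sub]
    module
  have h1 := key 1
  have h3 := (key (-1)).neg (by
    simp only [sub_mul, mul_sub, smul_mul_smul_comm, hAA, hAY, hYA, hYY, smul_zero, sub_zero])
  have := h1.add h3 (by
    simp only [sub_mul, mul_sub, mul_neg, neg_sub, smul_mul_smul_comm, hAA, hAY, hYA, hYY,
      smul_zero, sub_zero])
  convert this using 1
  module

/-- A nilpotent Casimir element kills `N`. -/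
theorem Pair.nilpotent (h2 : (2 : F) ≠ 0) (hT : Tame G N) :
    ∀ (i : ℕ) (N' : Module.End F V), Pair G N N' → cas N N' ^ i * N = 0 → cas N N' * N = 0 := by
  intro i
  induction i using Nat.strong_induction_on with
  | _ i ih =>
  intro N' hP hi
  set K := cas N N' with hK
  have hcomm : Commute K N := cas_comm_left hP.sq
  rcases Nat.lt_or_ge i 2 with hlt | hge
  · interval_cases i
    · rw [pow_zero, one_mul] at hi
      rw [hi, mul_zero]
    · rwa [pow_one] at hi
  have hK2 : K * K * N = 0 := by
    rcases hge.eq_or_lt with rfl | hlt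
    · rwa [pow_two] at hi
    obtain ⟨hP1, he⟩ := hP.next
    set K1 := cas N ((1 + N') * N * (1 - N')) with hK1
    have h1 : K1 * N = -(K * K * N) := (cas_mul_left hP.sq).trans he
    have hpow : ∀ j : ℕ, K1 ^ j * N = ((-1 : F) ^ j) • (K ^ (2 * j) * N) := by
      intro j
      induction j with
      | zero => simp
      | succ j hj =>
        have hc1 : Commute K1 N := cas_comm_left hP.sq
        rw [pow_succ, mul_assoc, hc1.eq, ← mul_assoc, hj, smul_mul_assoc, mul_assoc, ← hc1.eq, h1,
          mul_neg, ← mul_assoc, pow_succ, mul_smul, neg_one_smul,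
          show 2 * (j + 1) = 2 * j + 1 + 1 by ring, pow_succ, pow_succ, mul_assoc _ K K]
    have h0 : K1 * N = 0 := ih ((i + 1) / 2) (by omega) _ hP1 (by
      rw [hpow, show 2 * ((i + 1) / 2) = (2 * ((i + 1) / 2) - i) + i by omega, pow_add, mul_assoc,
        hi, mul_zero, smul_zero])
    rwa [h1, neg_eq_zero] at h0
  have h4 := hP.four_mem hK2
  obtain ⟨c, hc⟩ := hT.root _ (by
      rintro _ ⟨x, rfl⟩
      refine ⟨(4 : F) • K x, ?_⟩
      rw [map_smul, hcomm.eq]
      rfl)
    (fun x hx => by
      rw [LinearMap.mem_ker] at hx ⊢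
      rw [LinearMap.smul_apply, Module.End.mul_apply, hx, map_zero, smul_zero])
    h4
  have h : (4 : F) • (K * K * N) = c • (K * N) := by
    rw [mul_assoc, ← mul_smul_comm, hc, mul_smul_comm]
  rw [hK2, smul_zero] at h
  rcases smul_eq_zero.1 h.symm with rfl | h'
  · rw [zero_smul, smul_eq_zero] at hc
    exact hc.resolve_left (by
      rw [show (4 : F) = 2 * 2 by norm_num]; exact mul_ne_zero h2 h2)
  · exact h'

end Cfsg.Agent.MaxSub.QuadPair
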