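import Cfsg.Agent.MaxSub.QuadPair.Basic
import Cfsg.Agent.RootSub.SL2Gen.Basic

/-!
The corner cut out by an idempotent power of the Casimir element is a matrix algebra.
-/

set_option autoImplicit false

namespace Cfsg.Agent.MaxSub.QuadPair

open Module Polynomial

variable {F V : Type*} [Field F] [AddCommGroup V] [Module F V] {N N' : Module.End F V}

/-- A combination of the four products. -/
def lin (N N' a b c d : Module.End F V) : Module.End F V :=
  a * (N * N') + b * N + c * N' + d * (N' * N)

variable (N N') in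
/-- Commuting with both maps. -/
def Cen (a : Module.End F V) : Prop := Commute a N ∧ Commute a N'

lemma commute_aeval {f g : Module.End F V} (h : Commute f g) (p : F[X]) :
    Commute f (Polynomial.aeval g p) := by
  induction p using Polynomial.induction_on' with
  | add r s hr hs => rw [map_add]; exact hr.add_right hs
  | monomial n c =>
    rw [Polynomial.aeval_monomial]
    exact ((Algebra.commute_algebraMap_left c f).symm).mul_right (h.pow_right n)

lemma Cen.aeval (hs : N * N = 0) (hs' : N' * N' = 0) (p : F[X]) :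
    Cen N N' (aeval (cas N N') p) :=
  ⟨(commute_aeval (show Commute (cas N N') N from cas_comm_left hs).symm p).symm,
    (commute_aeval (show Commute (cas N N') N' from cas_comm_right hs').symm p).symm⟩

lemma Cen.mul {a b : Module.End F V} (ha : Cen N N' a) (hb : Cen N N' b) : Cen N N' (a * b) :=
  ⟨ha.1.mul_left hb.1, ha.2.mul_left hb.2⟩

lemma lin_mul (hs : N * N = 0) (hs' : N' * N' = 0) {a b c d a' b' c' d' : Module.End F V}
    (ha : Cen N N' a') (hb : Cen N N' b') (hc : Cen N N' c') (hd : Cen N N' d') :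
    lin N N' a b c d * lin N N' a' b' c' d' =
      lin N N' (a * a' * cas N N' + b * c') (a * b' * cas N N' + b * d' * cas N N')
        (c * a' * cas N N' + d * c' * cas N N') (c * b' + d * d' * cas N N') := by
  have sw : ∀ {p p' : Module.End F V} (x y : Module.End F V), Commute x p' →
      (p * x) * (p' * y) = p * p' * (x * y) := fun {p p'} x y h => by
    rw [mul_assoc, ← mul_assoc x, h.eq]; simp only [mul_assoc]
  have K1 : N * N' * N = cas N N' * N := (cas_mul_left hs).symm
  have K2 : N' * N * N' = cas N N' * N' := by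
    rw [cas, add_mul, mul_assoc N N' N', hs', mul_zero, zero_add]
  have hA : ∀ {p : Module.End F V}, Cen N N' p → Commute (N * N') p ∧ Commute N p ∧ Commute N' p ∧
      Commute (N' * N) p := fun h =>
    ⟨h.1.symm.mul_left h.2.symm, h.1.symm, h.2.symm, h.2.symm.mul_left h.1.symm⟩
  have t1 : N * N' * (N * N') = cas N N' * (N * N') := by rw [← mul_assoc, K1, mul_assoc]
  have t2 : N * N' * N' = 0 := by rw [mul_assoc, hs', mul_zero]
  have t3 : N * N' * (N' * N) = 0 := by
    rw [mul_assoc N, ← mul_assoc N' N', hs', zero_mul, mul_zero]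
  have t4 : N * (N * N') = 0 := by rw [← mul_assoc, hs, zero_mul]
  have t5 : N * (N' * N) = cas N N' * N := by rw [← mul_assoc, K1]
  have t6 : N' * (N * N') = cas N N' * N' := by rw [← mul_assoc, K2]
  have t7 : N' * (N' * N) = 0 := by rw [← mul_assoc, hs', zero_mul]
  have t8 : N' * N * (N * N') = 0 := by
    rw [mul_assoc N', ← mul_assoc N N, hs, zero_mul, mul_zero]
  have t9 : N' * N * N = 0 := by rw [mul_assoc, hs, mul_zero]
  have t10 : N' * N * (N' * N) = cas N N' * (N' * N) := by rw [← mul_assoc, K2, mul_assoc]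
  simp only [lin, mul_add, add_mul, sw _ _ (hA ha).1, sw _ _ (hA hb).1, sw _ _ (hA hc).1,
    sw _ _ (hA hd).1, sw _ _ (hA ha).2.1, sw _ _ (hA hb).2.1, sw _ _ (hA hc).2.1,
    sw _ _ (hA hd).2.1, sw _ _ (hA ha).2.2.1, sw _ _ (hA hb).2.2.1, sw _ _ (hA hc).2.2.1,
    sw _ _ (hA hd).2.2.1, sw _ _ (hA ha).2.2.2, sw _ _ (hA hb).2.2.2, sw _ _ (hA hc).2.2.2,
    sw _ _ (hA hd).2.2.2, t1, K1, t2, t3, t4, hs, t5, t6, hs', t7, t8, t9, K2, t10, mul_zero,
    add_zero, zero_add]
  simp only [← mul_assoc]
  abel

/-- The algebra without unit generated by the two maps. -/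
def InJ (N N' x : Module.End F V) : Prop :=
  ∃ a b c d : F[X], x = lin N N' (aeval (cas N N') a) (aeval (cas N N') b) (aeval (cas N N') c)
    (aeval (cas N N') d)

lemma InJ.add {x y : Module.End F V} (hx : InJ N N' x) (hy : InJ N N' y) : InJ N N' (x + y) := by
  obtain ⟨a, b, c, d, rfl⟩ := hx
  obtain ⟨a', b', c', d', rfl⟩ := hy
  exact ⟨a + a', b + b', c + c', d + d', by simp only [lin, map_add, add_mul]; abel⟩

lemma InJ.mul (hs : N * N = 0) (hs' : N' * N' = 0) {x y : Module.End F V} (hx : InJ N N' x)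
    (hy : InJ N N' y) : InJ N N' (x * y) := by
  obtain ⟨a, b, c, d, rfl⟩ := hx
  obtain ⟨a', b', c', d', rfl⟩ := hy
  exact ⟨a * a' * X + b * c', a * b' * X + b * d' * X, c * a' * X + d * c' * X,
    c * b' + d * d' * X, by
    rw [lin_mul hs hs' (Cen.aeval hs hs' _) (Cen.aeval hs hs' _) (Cen.aeval hs hs' _)
      (Cen.aeval hs hs' _)]
    simp only [map_add, map_mul, aeval_X]⟩

lemma InJ.zero : InJ N N' 0 := ⟨0, 0, 0, 0, by simp [lin]⟩

lemma InJ.smul_left (t : F) : InJ N N' (t • N) :=
  ⟨0, C t, 0, 0, by simp [lin, Algebra.smul_def]⟩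

lemma InJ.smul_right (t : F) : InJ N N' (t • N') :=
  ⟨0, 0, C t, 0, by simp [lin, Algebra.smul_def]⟩

lemma InJ.cen (hs : N * N = 0) (hs' : N' * N' = 0) {x p : Module.End F V} (hx : InJ N N' x)
    (hp : Cen N N' p) (hpK : Commute p (cas N N')) : Commute p x := by
  obtain ⟨a, b, c, d, rfl⟩ := hx
  exact ((((commute_aeval hpK a).mul_right (hp.1.mul_right hp.2)).add_right
    ((commute_aeval hpK b).mul_right hp.1)).add_right ((commute_aeval hpK c).mul_right hp.2)).add_right
    ((commute_aeval hpK d).mul_right (hp.2.mul_right hp.1))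

lemma InJ.cube (hs : N * N = 0) (hs' : N' * N' = 0) {x : Module.End F V} (hx : InJ N N' x) :
    ∃ y, InJ N N' y ∧ x * x * x = cas N N' * y := by
  obtain ⟨a, b, c, d, rfl⟩ := hx
  have hC := Cen.aeval (N := N) (N' := N') hs hs' (F := F)
  let a2 := a * a * X + b * c
  let b2 := (a * b + b * d) * X
  let c2 := (c * a + d * c) * X
  let d2 := c * b + d * d * X
  refine ⟨_, ⟨a2 * a + (a * b + b * d) * c, a2 * b + b2 * d, c2 * a + d2 * c,
    (c * a + d * c) * b + d2 * d, rfl⟩, ?_⟩
  rw [lin_mul hs hs' (hC a) (hC b) (hC c) (hC d), lin_mul hs hs' (hC a) (hC b) (hC c) (hC d)]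
  simp only [lin, a2, b2, c2, d2, mul_add, ← mul_assoc]
  have e : ∀ p : F[X], cas N N' * aeval (cas N N') p = aeval (cas N N') (X * p) := fun p => by
    rw [map_mul, aeval_X]
  simp only [e]
  have e' : ∀ p q : F[X], aeval (cas N N') p * aeval (cas N N') q = aeval (cas N N') (p * q) :=
    fun p q => (map_mul _ _ _).symm
  have eX : ∀ p : F[X], aeval (cas N N') p * cas N N' = aeval (cas N N') (p * X) := fun p => by
    rw [map_mul, aeval_X]
  simp only [e', eX, ← map_add]
  congr 8 <;> ring

variable (N N')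

/-- The idempotent. -/
def idem (m : ℕ) : Module.End F V := cas N N' ^ m

/-- The inverse of the Casimir element in the corner. -/
def kinv (m : ℕ) : Module.End F V := cas N N' ^ (2 * m - 1)

/-- The hypotheses on the exponent. -/
structure Split (m : ℕ) : Prop where
  pos : 0 < m
  sq : N * N = 0
  sq' : N' * N' = 0
  idem : idem N N' m * idem N N' m = idem N N' m

/-- Polynomials vanishing on the corner. -/
def ann (m : ℕ) : Ideal F[X] where
  carrier := {p | aeval (cas N N') p * idem N N' m = 0}
  zero_mem' := by simp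
  add_mem' {p q} (hp : _ = _) (hq : _ = _) := by
    show _ = _
    rw [map_add, add_mul, hp, hq, add_zero]
  smul_mem' p q (hq : _ = _) := by
    show _ = _
    rw [smul_eq_mul, map_mul, mul_assoc, hq, mul_zero]

/-- The coordinate ring of the corner. -/
abbrev Ring' (m : ℕ) := F[X] ⧸ ann N N' m

/-- The coordinate ring acting on the corner. -/
noncomputable def emb (m : ℕ) (x : Ring' N N' m) : Module.End F V :=
  aeval (cas N N') (Function.surjInv Ideal.Quotient.mk_surjective x) * idem N N' m

variable {N N'} {m : ℕ}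

lemma emb_mk (p : F[X]) :
    emb N N' m (Ideal.Quotient.mk _ p) = aeval (cas N N') p * idem N N' m := by
  have h := Function.surjInv_eq (f := Ideal.Quotient.mk (ann N N' m)) Ideal.Quotient.mk_surjective
    (Ideal.Quotient.mk _ p)
  rw [Ideal.Quotient.eq] at h
  have h' : aeval (cas N N') (Function.surjInv Ideal.Quotient.mk_surjective
      (Ideal.Quotient.mk (ann N N' m) p) - p) * idem N N' m = 0 := h
  rw [map_sub, sub_mul, sub_eq_zero] at h'
  exact h'

lemma emb_injective : Function.Injective (emb N N' m) := by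
  intro x y h
  obtain ⟨p, rfl⟩ := Ideal.Quotient.mk_surjective x
  obtain ⟨q, rfl⟩ := Ideal.Quotient.mk_surjective y
  rw [emb_mk, emb_mk] at h
  rw [Ideal.Quotient.eq]
  show aeval (cas N N') (p - q) * idem N N' m = 0
  rw [map_sub, sub_mul, h, sub_self]

lemma emb_add (x y : Ring' N N' m) : emb N N' m (x + y) = emb N N' m x + emb N N' m y := by
  obtain ⟨p, rfl⟩ := Ideal.Quotient.mk_surjective x
  obtain ⟨q, rfl⟩ := Ideal.Quotient.mk_surjective y
  rw [← map_add, emb_mk, emb_mk, emb_mk, map_add, add_mul]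

lemma emb_algebraMap (c : F) :
    emb N N' m (algebraMap F (Ring' N N' m) c) = c • idem N N' m := by
  rw [IsScalarTower.algebraMap_apply F F[X] (Ring' N N' m), Polynomial.algebraMap_eq,
    Ideal.Quotient.algebraMap_eq, emb_mk, aeval_C, Algebra.smul_def]

lemma emb_zero : emb N N' m 0 = 0 := by
  simpa using emb_algebraMap (N := N) (N' := N') (m := m) (0 : F)

lemma emb_one : emb N N' m 1 = idem N N' m := by
  simpa using emb_algebraMap (N := N) (N' := N') (m := m) (1 : F)

lemma emb_commute (x : Ring' N N' m) : Commute (emb N N' m x) (cas N N') := by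
  obtain ⟨p, rfl⟩ := Ideal.Quotient.mk_surjective x
  rw [emb_mk]
  exact ((commute_aeval (Commute.refl (cas N N')) p).symm).mul_left (Commute.pow_self _ _)

namespace Split

variable (hS : Split N N' m)
include hS

lemma emb_mul (x y : Ring' N N' m) : emb N N' m (x * y) = emb N N' m x * emb N N' m y := by
  obtain ⟨p, rfl⟩ := Ideal.Quotient.mk_surjective x
  obtain ⟨q, rfl⟩ := Ideal.Quotient.mk_surjective y
  have hi : cas N N' ^ m * cas N N' ^ m = cas N N' ^ m := hS.idem
  have hc := (commute_aeval (Commute.refl (cas N N')) q).pow_left m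
  rw [← map_mul, emb_mk, emb_mk, emb_mk, map_mul, QuadPair.idem, mul_assoc, mul_assoc,
    ← mul_assoc (cas N N' ^ m), hc.eq, mul_assoc, hi]

lemma cen_idem : Cen N N' (QuadPair.idem N N' m) :=
  ⟨(show Commute (cas N N') N from cas_comm_left hS.sq).pow_left _,
    (show Commute (cas N N') N' from cas_comm_right hS.sq').pow_left _⟩

lemma cen_kinv : Cen N N' (kinv N N' m) :=
  ⟨(show Commute (cas N N') N from cas_comm_left hS.sq).pow_left _,
    (show Commute (cas N N') N' from cas_comm_right hS.sq').pow_left _⟩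

lemma cen_emb (x : Ring' N N' m) : Cen N N' (emb N N' m x) := by
  obtain ⟨p, rfl⟩ := Ideal.Quotient.mk_surjective x
  rw [emb_mk]
  exact (Cen.aeval hS.sq hS.sq' p).mul hS.cen_idem

lemma kinv_mul_cas : kinv N N' m * cas N N' = QuadPair.idem N N' m := by
  have := hS.pos
  rw [kinv, ← pow_succ, show 2 * m - 1 + 1 = m + m by omega, pow_add]
  exact hS.idem

lemma idem_mul_kinv : QuadPair.idem N N' m * kinv N N' m = kinv N N' m := by
  have h := hS.idem
  have := hS.pos
  rw [QuadPair.idem, kinv, ← pow_add, show m + (2 * m - 1) = (m + m) + (m - 1) by omega, pow_add,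
    pow_add, show cas N N' ^ m * cas N N' ^ m = cas N N' ^ m from h, ← pow_add,
    show m + (m - 1) = 2 * m - 1 by omega]

lemma emb_idem (x : Ring' N N' m) : emb N N' m x * QuadPair.idem N N' m = emb N N' m x := by
  rw [← emb_one, ← hS.emb_mul, mul_one]

/-- The corner is faithful on the image of `N`. -/
lemma emb_eq_zero {x : Ring' N N' m} (h : emb N N' m x * N = 0) : x = 0 := by
  refine emb_injective ?_
  rw [emb_zero, ← hS.emb_idem x, ← hS.kinv_mul_cas, ← mul_assoc,
    show emb N N' m x * kinv N N' m = kinv N N' m * emb N N' m x from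
      ((emb_commute x).pow_right _).eq, mul_assoc]
  conv_lhs => arg 2; arg 2; rw [cas]
  rw [mul_add, ← mul_assoc (emb N N' m x) N, h, zero_mul, zero_add,
    ← mul_assoc (emb N N' m x) N', (hS.cen_emb x).2.eq,
    mul_assoc N', h, mul_zero, mul_zero]

end Split

open RootSub.SL2Gen

variable (N N' m)

/-- The matrix algebra in the corner. -/
noncomputable def phi (A : Matrix.SpecialLinearGroup (Fin 2) (Ring' N N' m)) : Module.End F V :=
  lin N N' (emb N N' m (A 0 0) * kinv N N' m) (emb N N' m (A 0 1))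
    (emb N N' m (A 1 0) * kinv N N' m) (emb N N' m (A 1 1) * kinv N N' m)

variable {N N' m}

namespace Split

variable (hS : Split N N' m)
include hS

lemma phi_one : phi N N' m 1 = QuadPair.idem N N' m := by
  have h : emb N N' m (1 : Ring' N N' m) * kinv N N' m = kinv N N' m := by
    rw [emb_one, hS.idem_mul_kinv]
  simp only [phi, lin, Matrix.SpecialLinearGroup.coe_one, Matrix.one_apply_eq,
    Matrix.one_apply_ne zero_ne_one, Matrix.one_apply_ne one_ne_zero, h, emb_zero, zero_mul,
    add_zero, ← mul_add]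
  rw [← cas, hS.kinv_mul_cas]

lemma phi_mul (A B : Matrix.SpecialLinearGroup (Fin 2) (Ring' N N' m)) :
    phi N N' m (A * B) = phi N N' m A * phi N N' m B := by
  have hcen : ∀ x, Cen N N' (emb N N' m x * kinv N N' m) := fun x =>
    (hS.cen_emb x).mul hS.cen_kinv
  rw [phi, phi, phi, lin_mul hS.sq hS.sq' (hcen _) (hS.cen_emb _) (hcen _) (hcen _)]
  have hk : ∀ x, emb N N' m x * kinv N N' m = kinv N N' m * emb N N' m x := fun x =>
    ((emb_commute x).pow_right _).eq
  have h1 : ∀ x y : Ring' N N' m,
      emb N N' m x * kinv N N' m * (emb N N' m y * kinv N N' m) * cas N N' =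
        emb N N' m (x * y) * kinv N N' m := fun x y => by
    rw [hS.emb_mul, mul_assoc, mul_assoc (emb N N' m y), hS.kinv_mul_cas, hS.emb_idem, mul_assoc,
      ← hk, ← mul_assoc]
  have h2 : ∀ x y : Ring' N N' m,
      emb N N' m x * (emb N N' m y * kinv N N' m) = emb N N' m (x * y) * kinv N N' m :=
    fun x y => by rw [hS.emb_mul, mul_assoc]
  have h6 : ∀ z : Ring' N N' m, emb N N' m z * kinv N N' m * cas N N' = emb N N' m z := fun z => by
    rw [mul_assoc, hS.kinv_mul_cas, hS.emb_idem]
  have h5 : ∀ x y : Ring' N N' m,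
      emb N N' m x * kinv N N' m * emb N N' m y = emb N N' m (x * y) * kinv N N' m := fun x y => by
    rw [hS.emb_mul, mul_assoc, ← hk, ← mul_assoc]
  simp only [h1, h2, h5, h6, Matrix.SpecialLinearGroup.coe_mul, Matrix.mul_apply,
    Fin.sum_univ_two, emb_add, add_mul]

end Split

end Cfsg.Agent.MaxSub.QuadPair
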